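import Cfsg.Agent.OddOrderLocal.FrobRep

/-!
# P3: an element acting without fixed points on a group and on a module
-/

set_option autoImplicit false

namespace Cfsg.Agent.H851.PQ

open Module

/-- An element `x` of prime order (or trivial) normalising `Q`, with `C_Q(x) = 1` and
`C_W(x) = 0` on a `Q⟨x⟩`-invariant subspace `W` in characteristic prime to `|Q|`: then `Q` is
trivial on `W`. -/
theorem P3 {k Γ V : Type*} [Field k] [Group Γ] [Finite Γ] [AddCommGroup V] [Module k V]
    [FiniteDimensional k V] (ρ : Representation k Γ V) (Q : Subgroup Γ) (x : Γ) {e : ℕ}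
    (he : e.Prime) (hxe : x ^ e = 1) (hxQ : ∀ y ∈ Q, x * y * x⁻¹ ∈ Q)
    (hQk : (Nat.card Q : k) ≠ 0)
    (hxfix : ∀ y ∈ Q, x * y = y * x → y = 1)
    (W : Submodule k V) (hQW : ∀ y ∈ Q, ∀ w ∈ W, ρ y w ∈ W) (hxW : ∀ w ∈ W, ρ x w ∈ W)
    (hfix : ∀ w ∈ W, ρ x w = w → w = 0) : ∀ y ∈ Q, ∀ w ∈ W, ρ y w = w := by
  classical
  by_cases hx1 : x = 1
  · subst hx1
    intro y hy w _
    rw [hxfix y hy (by rw [one_mul, mul_one])]
    simp
  have hfinQ : Fintype Q := Fintype.ofFinite Q
  -- `x` normalises `Q`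
  have hxN : x ∈ Subgroup.normalizer (Q : Set Γ) := by
    have hmap : Q.map (MulAut.conj x).toMonoidHom ≤ Q := by
      rintro _ ⟨y, hy, rfl⟩
      exact hxQ y hy
    have heq : Q.map (MulAut.conj x).toMonoidHom = Q := by
      apply Subgroup.eq_of_le_of_card_ge hmap
      rw [Subgroup.card_map_of_injective (MulAut.conj x).injective]
    rw [Subgroup.mem_normalizer_iff]
    intro y
    constructor
    · intro hy
      exact hxQ y hy
    · intro hy
      rw [← heq] at hy
      obtain ⟨z, hz, hzy⟩ := hy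
      have h1 : x * z * x⁻¹ = x * y * x⁻¹ := hzy
      have h2 : z = y := by
        have := mul_right_cancel h1
        exact mul_left_cancel this
      rw [← h2]
      exact hz
  let R : Subgroup Γ := Subgroup.zpowers x
  have hRN : R ≤ Subgroup.normalizer (Q : Set Γ) := by
    rw [Subgroup.zpowers_le]
    exact hxN
  -- the subspace
  let N : V →ₗ[k] V := ∑ y : Q, ρ (y : Γ)
  have hN : ∀ v, N v = ∑ y : Q, ρ (y : Γ) v := fun v => by
    simp only [N, LinearMap.sum_apply]
  have hNQ : ∀ y ∈ Q, ∀ v, N (ρ y v) = N v := by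
    intro y hy v
    rw [hN, hN]
    refine Fintype.sum_bijective (fun z : Q => z * ⟨y, hy⟩) (Group.mulRight_bijective _) _ _
      fun z => ?_
    rw [Subgroup.coe_mul, map_mul, Module.End.mul_apply]
  have hQN : ∀ y ∈ Q, ∀ v, ρ y (N v) = N v := by
    intro y hy v
    rw [hN, map_sum]
    refine Fintype.sum_bijective (fun z : Q => ⟨y, hy⟩ * z) (Group.mulLeft_bijective _) _ _
      fun z => ?_
    rw [Subgroup.coe_mul, map_mul, Module.End.mul_apply]
  have hNR : ∀ r ∈ R, ∀ v, N (ρ r v) = ρ r (N v) := by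
    intro r hr v
    have hrN := hRN hr
    rw [Subgroup.mem_normalizer_iff] at hrN
    rw [hN, hN, map_sum]
    have hinv : ∀ z : Q, r⁻¹ * (z : Γ) * r ∈ Q := by
      intro z
      rw [hrN]
      have : r * (r⁻¹ * (z : Γ) * r) * r⁻¹ = z := by group
      rw [this]
      exact z.2
    refine Fintype.sum_bijective (fun z : Q => (⟨r⁻¹ * (z : Γ) * r, hinv z⟩ : Q)) ?_ _ _
      fun z => ?_
    · constructor
      · intro z z' h
        have h1 : r⁻¹ * (z : Γ) * r = r⁻¹ * (z' : Γ) * r := congrArg Subtype.val h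
        have h2 := mul_right_cancel h1
        exact Subtype.ext (mul_left_cancel h2)
      · intro z
        refine ⟨⟨r * (z : Γ) * r⁻¹, (hrN z).mp z.2⟩, ?_⟩
        apply Subtype.ext
        change r⁻¹ * (r * (z : Γ) * r⁻¹) * r = z
        group
    · rw [← Module.End.mul_apply, ← Module.End.mul_apply, ← map_mul, ← map_mul]
      congr 2
      change (z : Γ) * r = r * (r⁻¹ * (z : Γ) * r)
      group
  have hxWR : ∀ r ∈ R, ∀ w ∈ W, ρ r w ∈ W := by
    intro r hr w hw
    have hr' : r ∈ Submonoid.powers x := mem_powers_iff_mem_zpowers.mpr hr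
    obtain ⟨n, rfl⟩ := hr'
    have : ∀ n : ℕ, ρ (x ^ n) w ∈ W := by
      intro n
      induction n with
      | zero => simpa using hw
      | succ n ih =>
        rw [pow_succ', map_mul, Module.End.mul_apply]
        exact hxW _ ih
    exact this n
  let W' : Submodule k V := W ⊓ LinearMap.ker N
  -- the representations on `W'`
  have hW'Q : ∀ y ∈ Q, ∀ w ∈ W', ρ y w ∈ W' := by
    intro y hy w hw
    refine ⟨hQW y hy w hw.1, ?_⟩
    change N (ρ y w) = 0
    rw [hNQ y hy]
    exact hw.2
  have hW'R : ∀ r ∈ R, ∀ w ∈ W', ρ r w ∈ W' := by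
    intro r hr w hw
    refine ⟨hxWR r hr w hw.1, ?_⟩
    change N (ρ r w) = 0
    rw [hNR r hr]
    have : N w = 0 := hw.2
    rw [this, map_zero]
  let ρ' : Representation k Q W' :=
    { toFun := fun y => (ρ (y : Γ)).restrict (hW'Q y y.2)
      map_one' := by
        ext w
        simp
      map_mul' := by
        intro y z
        ext w
        simp }
  let τ' : Representation k R W' :=
    { toFun := fun y => (ρ (y : Γ)).restrict (hW'R y y.2)
      map_one' := by
        ext w
        simp
      map_mul' := by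
        intro y z
        ext w
        simp }
  let σ : R →* MulAut Q := Q.normalizerMonoidHom.comp (Subgroup.inclusion hRN)
  have hσ : ∀ (r : R) (y : Q), ((σ r y : Q) : Γ) = (r : Γ) * y * (r : Γ)⁻¹ := fun r y => rfl
  have hcompat : ∀ (r : R) (y : Q) (v : W'), τ' r (ρ' y v) = ρ' (σ r y) (τ' r v) := by
    intro r y v
    apply Subtype.ext
    change ρ (r : Γ) (ρ (y : Γ) v) = ρ ((σ r y : Q) : Γ) (ρ (r : Γ) v)
    rw [hσ, ← Module.End.mul_apply, ← Module.End.mul_apply, ← map_mul, ← map_mul]
    congr 2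
    group
  have hfixQ : ∀ v : W', (∀ y : Q, ρ' y v = v) → v = 0 := by
    intro v hv
    have h1 : N (v : V) = 0 := v.2.2
    have h2 : N (v : V) = (Nat.card Q : k) • (v : V) := by
      rw [hN, Nat.card_eq_fintype_card, Nat.cast_smul_eq_nsmul, ← Finset.card_univ,
        ← Finset.sum_const]
      refine Finset.sum_congr rfl fun y _ => ?_
      exact congrArg Subtype.val (hv y)
    rw [h1] at h2
    apply Subtype.ext
    exact (smul_eq_zero.mp h2.symm).resolve_left hQk
  have hord : orderOf x = e := by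
    haveI : Fact e.Prime := ⟨he⟩
    exact orderOf_eq_prime hxe hx1
  have hfpf : ∀ r : R, r ≠ 1 → ∀ y : Q, σ r y = y → y = 1 := by
    intro r hr y hy
    have h1 : (r : Γ) * y * (r : Γ)⁻¹ = y := by
      rw [← hσ]
      exact congrArg Subtype.val hy
    have h2 : Commute (r : Γ) (y : Γ) := by
      have := eq_mul_of_mul_inv_eq h1
      exact this
    -- `x` is a power of `r`
    have h3 : x ∈ Subgroup.zpowers (r : Γ) := by
      have hcard : Nat.card R = e := by
        rw [Nat.card_zpowers, hord]
      have hr' : (r : Γ) ≠ 1 := fun h => hr (Subtype.ext h)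
      have h4 : Nat.card (Subgroup.zpowers (r : Γ)) ∣ Nat.card R :=
        Subgroup.card_dvd_of_le ((Subgroup.zpowers_le).mpr r.2)
      rw [hcard] at h4
      rcases (Nat.dvd_prime he).mp h4 with h5 | h5
      · exfalso
        apply hr'
        rw [Nat.card_zpowers] at h5
        exact orderOf_eq_one_iff.mp h5
      · have h6 : Subgroup.zpowers (r : Γ) = R := by
          apply Subgroup.eq_of_le_of_card_ge ((Subgroup.zpowers_le).mpr r.2)
          rw [h5, hcard]
        rw [h6]
        exact Subgroup.mem_zpowers x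
    obtain ⟨m, hm⟩ := h3
    have h7 : Commute x (y : Γ) := by
      rw [← hm]
      exact h2.zpow_left m
    exact Subtype.ext (hxfix y y.2 h7)
  obtain ⟨hdim, -⟩ := OddOrderLocal.FrobRep.finrank_eq hQk ρ' τ' σ hcompat hfixQ hfpf
  have hinv : τ'.invariants = ⊥ := by
    rw [eq_bot_iff]
    intro v hv
    rw [Representation.mem_invariants] at hv
    have h1 := congrArg Subtype.val (hv ⟨x, Subgroup.mem_zpowers x⟩)
    have h2 : ρ x (v : V) = v := h1
    have h3 := hfix v v.2.1 h2
    rw [Submodule.mem_bot]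
    exact Subtype.ext h3
  rw [hinv, finrank_bot, mul_zero] at hdim
  have hW'0 : ∀ w ∈ W', w = 0 := by
    have : W' = ⊥ := Submodule.finrank_eq_zero.mp hdim
    intro w hw
    rw [this] at hw
    exact hw
  intro y hy w hw
  have h1 : (Nat.card Q : k) • w - N w ∈ W' := by
    refine ⟨W.sub_mem (W.smul_mem _ hw) ?_, ?_⟩
    · rw [hN]
      exact Submodule.sum_mem _ fun z _ => hQW z z.2 w hw
    · change N _ = 0
      have h2 : N (N w) = (Nat.card Q : k) • N w := by
        rw [hN (N w), Nat.card_eq_fintype_card, Nat.cast_smul_eq_nsmul, ← Finset.card_univ,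
          ← Finset.sum_const]
        exact Finset.sum_congr rfl fun z _ => hQN z z.2 w
      rw [map_sub, map_smul, h2, sub_self]
  have h2 := hW'0 _ h1
  have h3 : (Nat.card Q : k) • w = N w := sub_eq_zero.mp h2
  have h4 : (Nat.card Q : k) • ρ y w = (Nat.card Q : k) • w := by
    rw [← map_smul, h3, hQN y hy]
  exact smul_right_injective V hQk h4

end Cfsg.Agent.H851.PQ
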