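import Cfsg.Agent.H851.Majorana

/-!
# Conjugating Majorana pairs
-/

set_option autoImplicit false
open Cfsg Cfsg.Axial

namespace Cfsg.Agent.H851.Maj

/-- Conjugating a Majorana pair by an automorphism. -/
theorem pair_conj {V : Type*} [AddCommGroup V] [Module ℝ V] {mul : V →ₗ[ℝ] V →ₗ[ℝ] V}
    {B : LinearMap.BilinForm ℝ V} {μ g : V ≃ₗ[ℝ] V} {a : V} (h : IsMajoranaPair mul B μ a)
    (hg : ∀ u v : V, g (mul u v) = mul (g u) (g v)) (hgB : ∀ u v : V, B (g u) (g v) = B u v) :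
    IsMajoranaPair mul B (g * μ * g⁻¹) (g a) := by
  have hgi : ∀ v : V, g (g⁻¹ v) = v := fun v => LinearEquiv.apply_symm_apply g v
  have hig : ∀ v : V, g⁻¹ (g v) = v := fun v => LinearEquiv.symm_apply_apply g v
  have hi : ∀ u v : V, g⁻¹ (mul u v) = mul (g⁻¹ u) (g⁻¹ v) := by
    intro u v
    apply g.injective
    rw [hgi, hg, hgi, hgi]
  have hiB : ∀ u v : V, B (g⁻¹ u) (g⁻¹ v) = B u v := by
    intro u v
    rw [← hgB, hgi, hgi]
  -- eigenspaces
  have heig : ∀ (c : ℝ) (v : V), v ∈ eigen mul (g a) c ↔ g⁻¹ v ∈ eigen mul a c := by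
    intro c v
    rw [mem_eigen, mem_eigen]
    constructor
    · intro h1
      have h2 := congrArg (fun t : V => g⁻¹ t) h1
      simp only [hi, hig, map_smul] at h2
      exact h2
    · intro h1
      have h2 := congrArg (fun t : V => g t) h1
      simp only [hg, hgi, map_smul] at h2
      exact h2
  have hsum : ∀ (S : Set ℝ) (v : V), v ∈ eigenSum mul (g a) S ↔ g⁻¹ v ∈ eigenSum mul a S := by
    intro S v
    have hmap : eigenSum mul (g a) S = (eigenSum mul a S).map (g : V →ₗ[ℝ] V) := by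
      unfold eigenSum
      simp only [Submodule.map_iSup]
      congr 1
      funext c
      congr 1
      funext _
      ext w
      rw [heig, Submodule.mem_map]
      constructor
      · intro h1
        exact ⟨g⁻¹ w, h1, hgi w⟩
      · rintro ⟨t, ht, rfl⟩
        change g⁻¹ (g t) ∈ _
        rw [hig]
        exact ht
    rw [hmap, Submodule.mem_map]
    constructor
    · rintro ⟨t, ht, rfl⟩
      change g⁻¹ (g t) ∈ _
      rw [hig]
      exact ht
    · intro h1
      exact ⟨g⁻¹ v, h1, hgi v⟩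
  refine ⟨?_, ?_, ⟨⟨?_, ?_, ?_, ?_⟩, ?_⟩, ?_, ?_⟩
  · intro u v
    change g (μ (g⁻¹ (mul u v))) = mul (g (μ (g⁻¹ u))) (g (μ (g⁻¹ v)))
    rw [hi, h.1, hg]
  · intro u v
    change B (g (μ (g⁻¹ u))) (g (μ (g⁻¹ v))) = B u v
    rw [hgB, h.2.1, hiB]
  · intro h0
    apply pair_ne h
    have := congrArg (fun t : V => g⁻¹ t) h0
    simpa [hig] using this
  · rw [← hg, pair_idem h]
  · rw [eq_top_iff]
    intro v _
    rw [hsum, h.2.2.1.1.2.2.1]
    trivial
  · intro c hc d hd u hu v hv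
    rw [hsum, hi]
    exact h.2.2.1.1.2.2.2 c hc d hd _ ((heig c u).mp hu) _ ((heig d v).mp hv)
  · ext v
    rw [heig, h.2.2.1.2, Submodule.mem_span_singleton, Submodule.mem_span_singleton]
    constructor
    · rintro ⟨l, hl⟩
      refine ⟨l, ?_⟩
      rw [← map_smul, hl, hgi]
    · rintro ⟨l, rfl⟩
      exact ⟨l, by rw [map_smul, hig]⟩
  · intro v hv
    change g (μ (g⁻¹ v)) = v
    have h1 := h.2.2.2.1 _ ((hsum _ v).mp hv)
    have h2 : μ (g⁻¹ v) = g⁻¹ v := h1
    rw [h2, hgi]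
  · intro v hv
    change g (μ (g⁻¹ v)) = -v
    have h1 := h.2.2.2.2 _ ((heig _ v).mp hv)
    have h2 : μ (g⁻¹ v) = -g⁻¹ v := h1
    rw [h2, map_neg, hgi]

end Cfsg.Agent.H851.Maj
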