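import Cfsg.Prelude.Def_AxialAlgebras

/-!
# Basic facts on Majorana axes

Eigenvector decomposition, fusion rules and orthogonality for a Majorana pair `(μ, a)` in the
setting `Cfsg.Axial.IsMajoranaAmbient`.
-/

set_option autoImplicit false
open Cfsg Cfsg.Axial

namespace Cfsg.Agent.H851.Maj

variable {V : Type*} [AddCommGroup V] [Module ℝ V] {mul : V →ₗ[ℝ] V →ₗ[ℝ] V}
  {B : LinearMap.BilinForm ℝ V}

theorem mem_eigen {a v : V} {c : ℝ} : v ∈ eigen mul a c ↔ mul a v = c • v :=
  Module.End.mem_eigenspace_iff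

theorem eigenSum_singleton (a : V) (c : ℝ) : eigenSum mul a {c} = eigen mul a c := by
  unfold eigenSum
  exact iSup_singleton

theorem eigenSum_insert (a : V) (c : ℝ) (S : Set ℝ) :
    eigenSum mul a (insert c S) = eigen mul a c ⊔ eigenSum mul a S := by
  unfold eigenSum
  exact iSup_insert

theorem law00 : monsterLaw (1 / 4 : ℝ) (1 / 32) 0 0 = {0} := by
  unfold monsterLaw
  norm_num

theorem law04 : monsterLaw (1 / 4 : ℝ) (1 / 32) 0 (1 / 4) = {1 / 4} := by
  unfold monsterLaw
  norm_num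

theorem law44 : monsterLaw (1 / 4 : ℝ) (1 / 32) (1 / 4) (1 / 4) = {1, 0} := by
  unfold monsterLaw
  norm_num

theorem law432 : monsterLaw (1 / 4 : ℝ) (1 / 32) (1 / 4) (1 / 32) = {1 / 32} := by
  unfold monsterLaw
  norm_num

theorem law032 : monsterLaw (1 / 4 : ℝ) (1 / 32) 0 (1 / 32) = {1 / 32} := by
  unfold monsterLaw
  norm_num

theorem law3232 : monsterLaw (1 / 4 : ℝ) (1 / 32) (1 / 32) (1 / 32) = {1, 0, 1 / 4} := by
  unfold monsterLaw
  norm_num

section Pair

variable {μ : V ≃ₗ[ℝ] V} {a : V}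

theorem pair_idem (h : IsMajoranaPair mul B μ a) : mul a a = a := h.2.2.1.1.2.1

theorem pair_ne (h : IsMajoranaPair mul B μ a) : a ≠ 0 := h.2.2.1.1.1

theorem pair_mul (h : IsMajoranaPair mul B μ a) (u v : V) : μ (mul u v) = mul (μ u) (μ v) :=
  h.1 u v

theorem pair_form (h : IsMajoranaPair mul B μ a) (u v : V) : B (μ u) (μ v) = B u v :=
  h.2.1 u v

theorem pair_zero (h : IsMajoranaPair mul B μ a) {v : V} (hv : mul a v = 0) : μ v = v := by
  have h1 : v ∈ eigenSum mul a {1, 0, 1 / 4} := by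
    rw [eigenSum_insert, eigenSum_insert]
    refine Submodule.mem_sup_right (Submodule.mem_sup_left ?_)
    rw [mem_eigen, hv, zero_smul]
  exact h.2.2.2.1 v h1

theorem pair_quarter (h : IsMajoranaPair mul B μ a) {v : V} (hv : mul a v = (1 / 4 : ℝ) • v) :
    μ v = v := by
  have h1 : v ∈ eigenSum mul a {1, 0, 1 / 4} := by
    rw [eigenSum_insert, eigenSum_insert, eigenSum_singleton]
    refine Submodule.mem_sup_right (Submodule.mem_sup_right ?_)
    rw [mem_eigen, hv]
  exact h.2.2.2.1 v h1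

theorem pair_self (h : IsMajoranaPair mul B μ a) : μ a = a := by
  have h1 : a ∈ eigenSum mul a {1, 0, 1 / 4} := by
    rw [eigenSum_insert]
    refine Submodule.mem_sup_left ?_
    rw [mem_eigen, pair_idem h, one_smul]
  exact h.2.2.2.1 a h1

theorem pair_neg (h : IsMajoranaPair mul B μ a) {v : V} (hv : mul a v = (1 / 32 : ℝ) • v) :
    μ v = -v := by
  have h1 : v ∈ eigen mul a (1 / 32) := by
    rw [mem_eigen, hv]
  exact h.2.2.2.2 v h1

/-- Every vector is the sum of eigenvectors. -/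
theorem pair_decomp (h : IsMajoranaPair mul B μ a) (v : V) :
    ∃ (l : ℝ) (α β γ : V), v = l • a + α + β + γ ∧ mul a α = 0 ∧ mul a β = (1 / 4 : ℝ) • β ∧
      mul a γ = (1 / 32 : ℝ) • γ := by
  have h1 : v ∈ eigenSum mul a majoranaSpectrum := by
    rw [h.2.2.1.1.2.2.1]
    trivial
  unfold majoranaSpectrum at h1
  rw [eigenSum_insert, eigenSum_insert, eigenSum_insert, eigenSum_singleton, h.2.2.1.2] at h1
  obtain ⟨x, hx, y, hy, rfl⟩ := Submodule.mem_sup.mp h1
  obtain ⟨α, hα, z, hz, rfl⟩ := Submodule.mem_sup.mp hy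
  obtain ⟨β, hβ, γ, hγ, rfl⟩ := Submodule.mem_sup.mp hz
  obtain ⟨l, rfl⟩ := Submodule.mem_span_singleton.mp hx
  refine ⟨l, α, β, γ, ?_, ?_, ?_, ?_⟩
  · abel
  · rw [mem_eigen.mp hα, zero_smul]
  · exact mem_eigen.mp hβ
  · exact mem_eigen.mp hγ

theorem fus00 (h : IsMajoranaPair mul B μ a) {u v : V} (hu : mul a u = 0) (hv : mul a v = 0) :
    mul a (mul u v) = 0 := by
  have h1 := h.2.2.1.1.2.2.2 0 (by simp [majoranaSpectrum]) 0 (by simp [majoranaSpectrum]) u
    (by rw [mem_eigen, hu, zero_smul]) v (by rw [mem_eigen, hv, zero_smul])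
  rw [law00, eigenSum_singleton, mem_eigen, zero_smul] at h1
  exact h1

theorem fus04 (h : IsMajoranaPair mul B μ a) {u v : V} (hu : mul a u = 0)
    (hv : mul a v = (1 / 4 : ℝ) • v) : mul a (mul u v) = (1 / 4 : ℝ) • mul u v := by
  have h1 := h.2.2.1.1.2.2.2 0 (by simp [majoranaSpectrum]) (1 / 4) (by simp [majoranaSpectrum]) u
    (by rw [mem_eigen, hu, zero_smul]) v (by rw [mem_eigen, hv])
  rw [law04, eigenSum_singleton, mem_eigen] at h1
  exact h1

/-- The product of two `1/4`-eigenvectors. -/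
theorem fus44' (h : IsMajoranaPair mul B μ a) {u v : V} (hu : mul a u = (1 / 4 : ℝ) • u)
    (hv : mul a v = (1 / 4 : ℝ) • v) :
    ∃ (l : ℝ) (w : V), mul u v = l • a + w ∧ mul a w = 0 := by
  have h1 := h.2.2.1.1.2.2.2 (1 / 4) (by simp [majoranaSpectrum]) (1 / 4)
    (by simp [majoranaSpectrum]) u (by rw [mem_eigen, hu]) v (by rw [mem_eigen, hv])
  rw [law44, eigenSum_insert, eigenSum_singleton, h.2.2.1.2] at h1
  obtain ⟨x, hx, y, hy, hxy⟩ := Submodule.mem_sup.mp h1
  obtain ⟨l, rfl⟩ := Submodule.mem_span_singleton.mp hx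
  refine ⟨l, y, hxy.symm, ?_⟩
  rw [mem_eigen.mp hy, zero_smul]

end Pair

section Form

variable {μ : V ≃ₗ[ℝ] V} {a : V}

/-- Associativity of the form in the shape `B (a u) v = B u (a v)`. -/
theorem form_shift (hV : IsMajoranaAmbient mul B) (a u v : V) :
    B (mul a u) v = B u (mul a v) := by
  rw [hV.2.2.2.1 u a v, hV.1 a u]

theorem form_assoc (hV : IsMajoranaAmbient mul B) (u v w : V) :
    B (mul u v) w = B u (mul v w) := (hV.2.2.2.1 u v w).symm

theorem form_orth (hV : IsMajoranaAmbient mul B) {a u v : V} {c d : ℝ} (hcd : c ≠ d)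
    (hu : mul a u = c • u) (hv : mul a v = d • v) : B u v = 0 := by
  have h1 := form_shift hV a u v
  rw [hu, hv] at h1
  simp only [map_smul, LinearMap.smul_apply, smul_eq_mul] at h1
  have h2 : (c - d) * B u v = 0 := by linarith
  rcases mul_eq_zero.mp h2 with h | h
  · exact absurd (sub_eq_zero.mp h) hcd
  · exact h

theorem form_zero (hV : IsMajoranaAmbient mul B) {v : V} (h : B v v = 0) : v = 0 := by
  by_contra hne
  have := hV.2.2.1 v hne
  linarith

/-- Two vectors of length one with inner product one are equal. -/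
theorem eq_of_form_one (hV : IsMajoranaAmbient mul B) {u v : V} (hu : B u u = 1)
    (hv : B v v = 1) (huv : B u v = 1) : u = v := by
  have h1 : B (u - v) (u - v) = 0 := by
    have := hV.2.1 u v
    simp only [map_sub, LinearMap.sub_apply]
    linarith
  exact sub_eq_zero.mp (form_zero hV h1)

/-- The product of two `1/4`-eigenvectors, projected. -/
theorem fus44 (hV : IsMajoranaAmbient mul B) (h : IsMajoranaPair mul B μ a) (hn : B a a = 1)
    {u v : V} (hu : mul a u = (1 / 4 : ℝ) • u) (hv : mul a v = (1 / 4 : ℝ) • v) :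
    mul a (mul u v) = (1 / 4 * B u v) • a := by
  obtain ⟨l, w, hw, hw0⟩ := fus44' h hu hv
  have ha : mul a a = (1 : ℝ) • a := by rw [one_smul]; exact pair_idem h
  have hw0' : mul a w = (0 : ℝ) • w := by rw [zero_smul]; exact hw0
  have h1 : B a w = 0 := form_orth hV (by norm_num) ha hw0'
  have h2 : B a (mul u v) = l := by
    rw [hw, map_add, map_smul, hn, h1]
    simp
  have h3 : B a (mul u v) = 1 / 4 * B u v := by
    rw [hV.2.2.2.1 a u v, hu]
    simp
  rw [hw, map_add, map_smul, pair_idem h, hw0, add_zero]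
  congr 1
  linarith

end Form

/-- Two Majorana pairs with the same axis have the same involution. -/
theorem pair_unique {μ ν : V ≃ₗ[ℝ] V} {a : V} (h : IsMajoranaPair mul B μ a)
    (h' : IsMajoranaPair mul B ν a) : μ = ν := by
  ext v
  obtain ⟨l, α, β, γ, rfl, hα, hβ, hγ⟩ := pair_decomp h v
  simp only [map_add, map_smul]
  rw [pair_self h, pair_self h', pair_zero h hα, pair_zero h' hα, pair_quarter h hβ,
    pair_quarter h' hβ, pair_neg h hγ, pair_neg h' hγ]

/-- A Majorana involution squares to the identity. -/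
theorem pair_invol {μ : V ≃ₗ[ℝ] V} {a : V} (h : IsMajoranaPair mul B μ a) (v : V) :
    μ (μ v) = v := by
  obtain ⟨l, α, β, γ, rfl, hα, hβ, hγ⟩ := pair_decomp h v
  simp only [map_add, map_smul]
  rw [pair_self h, pair_zero h hα, pair_quarter h hβ, pair_neg h hγ, map_neg, pair_neg h hγ,
    pair_self h, pair_zero h hα, pair_quarter h hβ, neg_neg]

/-- The `a`-coordinate of a vector is its inner product with `a`. -/
theorem decomp_coeff (hV : IsMajoranaAmbient mul B) {a α β γ : V} {l : ℝ} (haa : mul a a = a)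
    (hn : B a a = 1) (hα : mul a α = 0) (hβ : mul a β = (1 / 4 : ℝ) • β)
    (hγ : mul a γ = (1 / 32 : ℝ) • γ) : B a (l • a + α + β + γ) = l := by
  have ha : mul a a = (1 : ℝ) • a := by rw [one_smul]; exact haa
  have hα' : mul a α = (0 : ℝ) • α := by rw [zero_smul]; exact hα
  have h1 : B a α = 0 := form_orth hV (by norm_num) ha hα'
  have h2 : B a β = 0 := form_orth hV (by norm_num) ha hβ
  have h3 : B a γ = 0 := form_orth hV (by norm_num) ha hγ
  simp only [map_add, map_smul, h1, h2, h3, hn]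
  simp

end Cfsg.Agent.H851.Maj
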