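import Cfsg.Agent.H851.SakumaPoly

/-!
# Sakuma's theorem: the nine cases
-/

set_option autoImplicit false
open Cfsg Cfsg.Axial

namespace Cfsg.Agent.H851.Sak

open Cfsg.Agent.H851.Maj

/-- The common zeros of the two polynomials. -/
theorem nine_points {x y : ℝ}
    (h1 : 2097152 * x ^ 4 - 2326528 * x ^ 3 + 40960 * x ^ 2 * y + 184320 * x ^ 2 + 8896 * x * y -
      4800 * x + 128 * y ^ 2 - 167 * y + 39 = 0)
    (h2 : -536870912 * x ^ 5 + 605028352 * x ^ 4 - 26214400 * x ^ 3 * y - 44138496 * x ^ 3 +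
      1593344 * x ^ 2 * y + 860160 * x ^ 2 - 94208 * x * y ^ 2 - 165856 * x * y + 2016 * x -
      2784 * y ^ 2 + 2901 * y - 117 = 0) :
    (x = 1) ∨ (x = 0 ∧ y = 1) ∨ (x = 1 / 8 ∧ y = 1) ∨ (x = 13 / 256 ∧ y = 13 / 256) ∨
    (x = 1 / 64 ∧ y = 1 / 64) ∨ (x = 1 / 64 ∧ y = 1 / 8) ∨ (x = 1 / 32 ∧ y = 0) ∨
    (x = 3 / 128 ∧ y = 3 / 128) ∨ (x = 5 / 256 ∧ y = 13 / 256) := by
  have hT : x * (64 * x - 1) * (64 * x - 1) * (256 * x - 5) * (128 * x - 3) * (32 * x - 1) *
      (256 * x - 13) * (8 * x - 1) * (x - 1) = 0 := by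
    linear_combination (134217728 / 735 * x ^ 6 + 5333843968 / 735 * x ^ 5 +
      6029312 / 735 * x ^ 4 * y - 92964864 / 245 * x ^ 4 + 4675584 / 245 * x ^ 3 * y +
      22450928 / 735 * x ^ 3 + 263152 / 735 * x ^ 2 * y - 979625 / 1176 * x ^ 2 -
      14503 / 1960 * x * y + 161867 / 25088 * x - 1131 / 25088 * y + 1521 / 802816) * h1 +
      (524288 / 735 * x ^ 5 + 1257472 / 105 * x ^ 4 + 8192 / 735 * x ^ 3 * y +
      382752 / 245 * x ^ 3 + 128 / 5 * x ^ 2 * y - 33293 / 588 * x ^ 2 - 397 / 1470 * x * y +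
      7849 / 18816 * x - 13 / 6272 * y + 507 / 802816) * h2
  have h64 : x = 1 / 64 → (x = 1 / 64 ∧ y = 1 / 64) ∨ (x = 1 / 64 ∧ y = 1 / 8) := by
    intro h
    subst h
    have h3 : (y - 1 / 64) * (y - 1 / 8) = 0 := by
      linear_combination (1 / 128 : ℝ) * h1
    rcases mul_eq_zero.mp h3 with h | h
    · left; exact ⟨rfl, by linarith⟩
    · right; exact ⟨rfl, by linarith⟩
  simp only [mul_eq_zero] at hT
  rcases hT with (((((((h | h) | h) | h) | h) | h) | h) | h) | h
  · -- x = 0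
    subst h
    right; left
    refine ⟨rfl, ?_⟩
    linear_combination (-29 / 975 : ℝ) * h1 + (-29 / 975 * (4 / 87) : ℝ) * h2
  · have hx : x = 1 / 64 := by linarith
    rcases h64 hx with h | h
    · tauto
    · tauto
  · have hx : x = 1 / 64 := by linarith
    rcases h64 hx with h | h
    · tauto
    · tauto
  · have hx : x = 5 / 256 := by linarith
    subst hx
    right; right; right; right; right; right; right; right
    refine ⟨rfl, ?_⟩
    linear_combination (2312 / 56475 : ℝ) * h1 + (2312 / 56475 * (8 / 289) : ℝ) * h2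
  · have hx : x = 3 / 128 := by linarith
    subst hx
    right; right; right; right; right; right; right; left
    refine ⟨rfl, ?_⟩
    linear_combination (2 / 105 : ℝ) * h1 + (2 / 105 * (1 / 39) : ℝ) * h2
  · have hx : x = 1 / 32 := by linarith
    subst hx
    right; right; right; right; right; right; left
    refine ⟨rfl, ?_⟩
    linear_combination (179 / 20925 : ℝ) * h1 + (179 / 20925 * (4 / 179) : ℝ) * h2
  · have hx : x = 13 / 256 := by linarith
    subst hx
    right; right; right; left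
    refine ⟨rfl, ?_⟩
    linear_combination (3784 / 1167075 : ℝ) * h1 + (3784 / 1167075 * (8 / 473) : ℝ) * h2
  · have hx : x = 1 / 8 := by linarith
    subst hx
    right; right; left
    refine ⟨rfl, ?_⟩
    linear_combination (1 / 1197 : ℝ) * h1 + (1 / 1197 * (4 / 455) : ℝ) * h2
  · left; linarith

variable {V : Type*} [AddCommGroup V] [Module ℝ V]
variable {mul : V →ₗ[ℝ] V →ₗ[ℝ] V} {B : LinearMap.BilinForm ℝ V} {a : ℤ → V}

/-- Reversing the sequence. -/
theorem Seq.neg (S : Seq mul B a) : Seq mul B (fun i => a (-i)) where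
  amb := S.amb
  pair := by
    intro i
    obtain ⟨τ, h, hτ⟩ := S.pair (-i)
    refine ⟨τ, h, ?_⟩
    intro j
    rw [hτ]
    congr 1
    ring
  norm := fun i => S.norm (-i)

/-- **Sakuma's theorem for a dihedral sequence of axes**: one of the listed coincidences holds. -/
theorem Seq.final (S : Seq mul B a) :
    a 1 = a 0 ∨ a 2 = a 0 ∨ a 3 = a 0 ∨ a 2 = a (-2) ∨ a 3 = a (-2) ∨ a 3 = a (-3) := by
  have D := S.data
  have hV := S.amb
  have p1 := D.poly1
  have p2 := D.poly2
  obtain ⟨l3, l4, l4', l5⟩ := D.lams rfl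
  have n := S.norm
  rcases nine_points p1 p2 with h | ⟨hx, hy⟩ | ⟨hx, hy⟩ | ⟨hx, hy⟩ | ⟨hx, hy⟩ | ⟨hx, hy⟩ |
    ⟨hx, hy⟩ | ⟨hx, hy⟩ | ⟨hx, hy⟩
  · left
    exact (eq_of_form_one hV (n 0) (n 1) h).symm
  · right; left
    exact (eq_of_form_one hV (n 0) (n 2) hy).symm
  · right; left
    exact (eq_of_form_one hV (n 0) (n 2) hy).symm
  · right; right; left
    refine (eq_of_form_one hV (n 0) (n 3) ?_).symm
    rw [l3, hx, hy]; norm_num
  · right; right; left
    refine (eq_of_form_one hV (n 0) (n 3) ?_).symm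
    rw [l3, hx, hy]; norm_num
  · right; right; right; left
    refine (eq_of_form_one hV (n (-2)) (n 2) ?_).symm
    rw [l4, l3, hx, hy]; norm_num
  · right; right; right; left
    refine (eq_of_form_one hV (n (-2)) (n 2) ?_).symm
    rw [l4, l3, hx, hy]; norm_num
  · right; right; right; right; left
    refine (eq_of_form_one hV (n (-2)) (n 3) ?_).symm
    rw [l5, l4, l3, hx, hy]; norm_num
  · right; right; right; right; right
    have r1 := D.rel
    have D' := S.neg.data
    have r2 := D'.rel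
    have e1 : B (a (-0)) (a (-1)) = B (a 0) (a 1) := D.g0m1
    have e2 : B (a (-0)) (a (-2)) = B (a 0) (a 2) := D.g0m2
    have e3 : sd mul (fun i => a (-i)) 1 (-1) = sd mul a 1 (-1) := S.sd_symm (-1) 1
    have e4 : sd mul (fun i => a (-i)) 0 2 = sd mul a 0 2 := (S.sd_refl 0 2).symm
    have e5 : a (-0) = a 0 := by norm_num
    have e6 : a (- -1) = a 1 := by norm_num
    have e7 : a (- -2) = a 2 := by norm_num
    rw [hx, hy] at r1
    rw [e1, e2, e3, e4, e5, e6, e7, hx, hy] at r2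
    linear_combination (norm := module) r2 - r1

end Cfsg.Agent.H851.Sak
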