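import Cfsg.Agent.H851.SakumaLocal

/-!
# Sakuma's theorem: the sequence of axes

`Seq mul B a` : `a : ℤ → V` is the sequence of axes generated by two Majorana involutions.
The main result `Seq.final` lists the coincidences of axes.
-/

set_option autoImplicit false
open Cfsg Cfsg.Axial

namespace Cfsg.Agent.H851.Sak

open Cfsg.Agent.H851.Maj

variable {V : Type*} [AddCommGroup V] [Module ℝ V]

/-- A dihedral sequence of axes. -/
structure Seq (mul : V →ₗ[ℝ] V →ₗ[ℝ] V) (B : LinearMap.BilinForm ℝ V) (a : ℤ → V) : Prop where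
  amb : IsMajoranaAmbient mul B
  pair : ∀ i : ℤ, ∃ τ : V ≃ₗ[ℝ] V, IsMajoranaPair mul B τ (a i) ∧ ∀ j, τ (a j) = a (2 * i - j)
  norm : ∀ i, B (a i) (a i) = 1

/-- The invariant part of the product of two axes. -/
noncomputable def sd (mul : V →ₗ[ℝ] V →ₗ[ℝ] V) (a : ℤ → V) (i j : ℤ) : V :=
  mul (a i) (a j) - (1 / 32 : ℝ) • (a i + a j)

variable {mul : V →ₗ[ℝ] V →ₗ[ℝ] V} {B : LinearMap.BilinForm ℝ V} {a : ℤ → V}

theorem mul_sd (i j : ℤ) : mul (a i) (a j) = sd mul a i j + (1 / 32 : ℝ) • (a i + a j) := by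
  unfold sd
  abel

theorem Seq.sd_symm (S : Seq mul B a) (i j : ℤ) : sd mul a i j = sd mul a j i := by
  unfold sd
  rw [S.amb.1 (a i) (a j), add_comm (a i) (a j)]

theorem Seq.idem (S : Seq mul B a) (i : ℤ) : mul (a i) (a i) = a i := by
  obtain ⟨τ, h, -⟩ := S.pair i
  exact pair_idem h

/-- Reflection of inner products. -/
theorem Seq.form_refl (S : Seq mul B a) (k i j : ℤ) :
    B (a (2 * k - i)) (a (2 * k - j)) = B (a i) (a j) := by
  obtain ⟨τ, h, hτ⟩ := S.pair k
  rw [← hτ, ← hτ, pair_form h]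

/-- Reflection of the `s`-vectors at one of the two axes. -/
theorem Seq.sd_refl (S : Seq mul B a) (i j : ℤ) : sd mul a i j = sd mul a i (2 * i - j) := by
  obtain ⟨τ, h, hτ⟩ := S.pair i
  have h1 := (local_one S.amb (b' := τ (a j)) h (S.norm i) rfl rfl (mul_sd i j)).1
  rw [← h1]
  unfold sd
  rw [map_sub, map_smul, map_add, pair_mul h, pair_self h, hτ]

/-- The product of an axis with an `s`-vector. -/
theorem Seq.mul_s (S : Seq mul B a) (i j : ℤ) :
    mul (a i) (sd mul a i j) = (3 / 4 * B (a i) (a j) - 25 / 1024) • a i +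
      (7 / 2048 : ℝ) • (a j + a (2 * i - j)) + (7 / 32 : ℝ) • sd mul a i j := by
  obtain ⟨τ, h, hτ⟩ := S.pair i
  have h1 := (local_one S.amb (b' := τ (a j)) h (S.norm i) rfl rfl (mul_sd i j)).2.1
  rw [h1, hτ]

/-- The inner product of an `s`-vector with one of its axes. -/
theorem Seq.form_s (S : Seq mul B a) (i j : ℤ) :
    B (sd mul a i j) (a i) = 31 / 32 * B (a i) (a j) - 1 / 32 := by
  unfold sd
  have h1 : B (mul (a i) (a j)) (a i) = B (a i) (a j) := by
    rw [S.amb.1 (a i) (a j), form_assoc S.amb, S.idem, S.amb.2.1]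
  have h2 : B (a j) (a i) = B (a i) (a j) := S.amb.2.1 _ _
  simp only [map_sub, map_smul, map_add, LinearMap.sub_apply, LinearMap.smul_apply,
    LinearMap.add_apply, smul_eq_mul]
  rw [h1, h2, S.norm i]
  ring

/-- The length of the `1/4`-component. -/
theorem Seq.form_beta (S : Seq mul B a) (i j : ℤ) (β : V)
    (hβ : β = (1 / 8 - 4 * B (a i) (a j)) • a i + (1 / 16 : ℝ) • (a j + a (2 * i - j)) +
      (4 : ℝ) • sd mul a i j) :
    B β β = 4 * B (a i) (a j) - 4 * B (a i) (a j) * B (a i) (a j) -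
      (1 - B (a j) (a (2 * i - j))) / 16 := by
  obtain ⟨τ, h, hτ⟩ := S.pair i
  have h1 := (local_one S.amb (b' := τ (a j)) h (S.norm i) rfl rfl (mul_sd i j)).2.2
  rw [hτ] at h1
  rw [h1 β hβ, hβ]
  have h2 : B (a (2 * i - j)) (a j) = B (a j) (a (2 * i - j)) := S.amb.2.1 _ _
  have h3 : B (sd mul a i j) (a j) = 31 / 32 * B (a i) (a j) - 1 / 32 := by
    rw [S.sd_symm, S.form_s, S.amb.2.1 (a j) (a i)]
  simp only [map_smul, map_add, LinearMap.smul_apply, LinearMap.add_apply, smul_eq_mul]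
  rw [h2, h3, S.norm j]
  ring

end Cfsg.Agent.H851.Sak
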